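import Cfsg.Agent.AschComp.SpSec
import Cfsg.Agent.BabyComp.Main

/-!
# S1308: `RankOne` for the Baby Monster from the data of `BabyComp/Main.lean` (helper32)
-/

set_option autoImplicit false

namespace Cfsg.Agent.AschComp.SpBabyOf

open Subgroup Cfsg Cfsg.Agent.CTwoTab Cfsg.Agent.R01.Lifts Cfsg.Agent.MonsterN Cfsg.Agent.MonsterN.Lit
open Cfsg.Agent.BabyComp

variable {B X E : Type*} [Group B] [Group X] [Group E] [Finite B] [Finite X] {q : B →* X} {τ : B} {R : Set E}
variable {y : ℕ → B} {h : Pre y} {π : KK y →* E}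

/-- **the hypotheses are some of those of `BabyComp.Main.at_all`** -/
theorem rankOne [IsSimpleGroup E] (hq : Ext q τ) (h10 : y 10 = τ) (D : KD h R π) (big : KEq.Big B τ (y 5))
    (hna : ∃ a b : E, a * b ≠ b * a) : RankOne X := by
  obtain ⟨σ, hσ⟩ := Main.exists_sigma hq h10 D
  exact SpSec.rankOne_of_data (Main.data hq h10 D big hσ) hna

end Cfsg.Agent.AschComp.SpBabyOf
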